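import Mathlib
import Cfsg.Agent.PrimeDegree.Degree
import Cfsg.Agent.PrimeDegree.Bruhat
import Cfsg.Agent.PrimeDegree.ElevenFix
import Cfsg.Agent.PrimeDegree.Jordan

/-!
Degree eleven.
-/

set_option autoImplicit false

namespace CfsgLib.PrimeDegree.Eleven

open MulAction

/-- The group contains a permutation with the values of `f`. -/
def Has (G : Subgroup (Equiv.Perm F11)) (f : F11 → F11) : Prop := ∃ g ∈ G, ∀ j, g j = f j

variable {G : Subgroup (Equiv.Perm F11)}

theorem Has.comp {f h : F11 → F11} : Has G f → Has G h → Has G fun j => f (h j) := by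
  rintro ⟨g, hg, hgf⟩ ⟨k, hk, hkh⟩
  exact ⟨g * k, G.mul_mem hg hk, fun j => by rw [Equiv.Perm.mul_apply, hkh, hgf]⟩

theorem Has.congr {f h : F11 → F11} (hf : Has G f) (e : ∀ j, f j = h j) : Has G h := by
  obtain ⟨g, hg, hgf⟩ := hf
  exact ⟨g, hg, fun j => (hgf j).trans (e j)⟩

theorem Has.iterate {f : F11 → F11} (hf : Has G f) : ∀ n, Has G f^[n]
  | 0 => ⟨1, G.one_mem, fun _ => rfl⟩
  | n + 1 => (Has.comp (hf.iterate n) hf).congr fun j => rfl

theorem Has.mono {H : Subgroup (Equiv.Perm F11)} (hHG : H ≤ G) {f : F11 → F11} : Has H f → Has G f :=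
  fun ⟨g, hg, h⟩ => ⟨g, hHG hg, h⟩

theorem shift_iterate : ∀ (n : ℕ) (j : F11), (fun i : F11 => i + 1)^[n] j = j + n := by
  intro n
  induction n with
  | zero => intro j; simp
  | succ n ih => intro j; rw [Function.iterate_succ_apply, ih]; push_cast; ring

theorem has_translation (hτ : Has G fun i => i + 1) (k : F11) : Has G fun j => j + k :=
  (hτ.iterate k.val).congr fun j => by rw [shift_iterate, ZMod.natCast_zmod_val]

theorem isPretransitive_of_shift (hτ : Has G fun i => i + 1) : IsPretransitive G F11 := by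
  refine ⟨fun x y => ?_⟩
  obtain ⟨g, hg, h⟩ := has_translation hτ (y - x)
  exact ⟨⟨g, hg⟩, (h x).trans (by ring)⟩

theorem has_word (hτ : Has G fun i => i + 1) {f : F11 → F11} (hf : Has G f) : ∀ w, Has G (word f w)
  | [] => ⟨1, G.one_mem, fun _ => rfl⟩
  | k :: ks => ((has_translation hτ k).comp (hf.comp (has_word hτ hf ks))).congr fun j => by
      show f (word f ks j) + k = k + f (word f ks j)
      ring

theorem seven_dvd (hτ : Has G fun i => i + 1) {f : F11 → F11} (hf : Has G f) {w : List F11} {j : F11}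
    (h : seven f w j = true) : 7 ∣ Nat.card G := by
  haveI : Fact (Nat.Prime 7) := ⟨by norm_num⟩
  obtain ⟨g, hg, hgw⟩ := has_word hτ hf w
  simp only [seven, Bool.and_eq_true, decide_eq_true_eq] at h
  have heq : ⇑g = word f w := funext hgw
  have hmin : Function.minimalPeriod (⇑g) j = 7 := by
    rw [heq]
    exact Function.minimalPeriod_eq_prime h.1 h.2
  have hper : Function.IsPeriodicPt (⇑g) (orderOf g) j := by
    show (⇑g)^[orderOf g] j = j
    rw [← Equiv.Perm.coe_pow, pow_orderOf_eq_one]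
    rfl
  have h7 : 7 ∣ orderOf g := hmin ▸ hper.minimalPeriod_dvd
  refine h7.trans ?_
  have := orderOf_dvd_natCard (⟨g, hg⟩ : G)
  rwa [Subgroup.orderOf_mk] at this

theorem dvd_of_not_pow {q k m X : ℕ} (hq : q.Prime) (h : m ∣ q ^ (k + 1) * X) (hn : ¬ q ^ (k + 1) ∣ m) :
    m ∣ q ^ k * X := by
  obtain ⟨a, b, ha, hb, rfl⟩ := Nat.dvd_mul.mp h
  obtain ⟨i, hi, rfl⟩ := (Nat.dvd_prime_pow hq).mp ha
  refine Nat.mul_dvd_mul (pow_dvd_pow q ?_) hb
  by_contra hlt
  exact hn (dvd_mul_of_dvd_left (pow_dvd_pow q (by omega)) b)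

/-- Hypotheses on the group. -/
structure Std (G : Subgroup (Equiv.Perm F11)) : Prop where
  shift : Has G fun i => i + 1
  nonsolvable : ¬ Group.IsSolvable G
  small : ¬ alternatingGroup F11 ≤ G

variable (hS : Std G)
include hS

theorem Std.transitive : IsPretransitive G F11 := isPretransitive_of_shift hS.shift

theorem not_threeCycle {g : Equiv.Perm F11} (hg : g ∈ G) : ¬ g.IsThreeCycle :=
  haveI := hS.transitive
  not_isThreeCycle (p := 11) (ZMod.card 11) G hS.small hg

theorem not_cycle_pow_dvd {q k : ℕ} [Fact q.Prime] (hq3 : q ≠ 3) (hq8 : q + 3 ≤ 11)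
    (hk : ¬ q ^ (k + 1) ∣ Nat.factorial 11) (l : List F11) (hl : l.Nodup) (hlen : l.length = q) :
    ¬ q ^ k ∣ Nat.card G := by
  intro hd
  haveI := hS.transitive
  have h2 := (Fact.out : q.Prime).two_le
  set t := l.formPerm
  have htc : t.IsCycle := List.isCycle_formPerm hl (by omega)
  have hts : t.support.card = q := by
    rw [List.support_formPerm_of_nodup l hl (by rintro x rfl; simp at hlen; omega),
      List.toFinset_card_of_nodup hl, hlen]
  obtain ⟨c, hc⟩ := exists_conj_mem G ((ZMod.card 11).symm ▸ hk) hd t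
    ⟨1, by rw [htc.orderOf, hts, pow_one]⟩
  obtain ⟨s, hs, hs3⟩ := exists_threeCycle_of_prime_cycle G (isPreprimitive (p := 11) (ZMod.card 11) G) hq3 hc
    htc.conj (by rw [Equiv.Perm.card_support_conj, hts]) (by rw [ZMod.card]; omega)
  exact not_threeCycle hS hs hs3

theorem not_seven : ¬ 7 ∣ Nat.card G := by
  haveI : Fact (Nat.Prime 7) := ⟨by norm_num⟩
  simpa using not_cycle_pow_dvd (q := 7) (k := 1) hS (by norm_num) (by norm_num) (by decide)
    [0, 1, 2, 3, 4, 5, 6] (by decide) rfl

theorem not_twentyFive : ¬ 5 ^ 2 ∣ Nat.card G := by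
  haveI : Fact (Nat.Prime 5) := ⟨by norm_num⟩
  exact not_cycle_pow_dvd (q := 5) (k := 2) hS (by norm_num) (by norm_num) (by decide)
    [0, 1, 2, 3, 4] (by decide) rfl

theorem no_seven {f : F11 → F11} (hf : Has G f) {w : List F11} {j : F11} : seven f w j ≠ true :=
  fun h => not_seven hS (seven_dvd hS.shift hf h)

theorem reduced_dvd {m : ℕ} (hm : Nat.card G = 11 * m) : m ∣ 17280 := by
  haveI := hS.transitive
  have hd : Nat.card G ∣ Nat.factorial 11 := by
    have := Subgroup.card_subgroup_dvd_card G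
    rwa [Nat.card_perm, Nat.card_zmod] at this
  rw [hm, show Nat.factorial 11 = 11 * (7 ^ (0 + 1) * (5 ^ (1 + 1) * (3 ^ (3 + 1) * 2 ^ (7 + 1)))) by decide] at hd
  have h0 := Nat.dvd_of_mul_dvd_mul_left (by norm_num) hd
  have hdvd : ∀ {a}, a ∣ m → a ∣ Nat.card G := fun h => hm ▸ dvd_mul_of_dvd_right h 11
  have h1 := dvd_of_not_pow (by norm_num) h0 fun h => not_seven hS (hdvd (by simpa using h))
  rw [pow_zero, one_mul] at h1
  have h2 := dvd_of_not_pow (by norm_num) h1 fun h => not_twentyFive hS (hdvd h)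
  have h3 : m ∣ 5 ^ 1 * (3 ^ 3 * 2 ^ (7 + 1)) := by
    rw [show (5 ^ 1 * (3 ^ (3 + 1) * 2 ^ (7 + 1)) : ℕ) = 3 ^ (3 + 1) * (5 ^ 1 * 2 ^ (7 + 1)) by norm_num] at h2
    have := dvd_of_not_pow (by norm_num) h2 fun h =>
      not_three_pow_dvd (p := 11) (ZMod.card 11) (by norm_num) G hS.small (k := 4) (by decide) (hdvd h)
    exact this.trans (by norm_num)
  rw [show (5 ^ 1 * (3 ^ 3 * 2 ^ (7 + 1)) : ℕ) = 2 ^ (7 + 1) * 135 by norm_num] at h3
  have h4 := dvd_of_not_pow (by norm_num) h3 fun h =>
    not_two_pow_dvd (p := 11) (ZMod.card 11) G hS.small (k := 8) (by decide) (hdvd h)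
  exact h4.trans (by norm_num)

theorem affine_data (hneg : ¬ Has G fun j => -j) :
    ∃ n, Nat.card G = 55 * n ∧ n % 11 = 1 ∧ n ≠ 1 ∧ Has G fun j => 3 * j := by
  haveI := hS.transitive
  obtain ⟨τ, hτG, hτ⟩ := hS.shift
  set T : G := ⟨τ, hτG⟩
  have hTpow : ∀ (k : ℕ) (j : F11), ((T ^ k : G) : Equiv.Perm F11) j = j + k := by
    intro k j
    rw [Subgroup.coe_pow, Equiv.Perm.coe_pow, show ⇑(T : Equiv.Perm F11) = fun i => i + 1 from funext hτ,
      shift_iterate]
  have hT11 : orderOf T = 11 := by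
    refine orderOf_eq_prime (Subtype.ext (Equiv.ext fun j => ?_)) fun h => ?_
    · rw [hTpow, ZMod.natCast_self, add_zero]
      rfl
    · have h0 := hTpow 1 0
      rw [pow_one, h, Subgroup.coe_one, Equiv.Perm.one_apply] at h0
      exact absurd h0 (by decide)
  obtain ⟨P, hP⟩ := (IsPGroup.of_card (p := 11) (n := 1)
    (by rw [Nat.card_zpowers, hT11, pow_one]) : IsPGroup 11 (Subgroup.zpowers T)).exists_le_sylow
  have hPT : (P : Subgroup G) = Subgroup.zpowers T := by
    refine (Subgroup.eq_of_le_of_card_ge hP ?_).symm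
    rw [Nat.card_zpowers, hT11]
    exact le_of_eq (card_sylow (ZMod.card 11) G P)
  obtain ⟨n, d, hcard, hn, hn1, hd, hd1, hN⟩ := sylow_counts (p := 11) (ZMod.card 11) G hS.nonsolvable P
  set N := Subgroup.normalizer ((P : Subgroup G) : Set G)
  have haff : ∀ g : N, ∃ a b : F11, a ≠ 0 ∧ ∀ j, ((g : G) : Equiv.Perm F11) j = a * j + b := by
    intro g
    have h := isAffineMap_of_normalizes (Equiv.refl F11) G T hτ (g := (g : G)) (by
      rw [mem_powers_iff_mem_zpowers, ← hPT]
      exact ((Subgroup.mem_normalizer_iff.mp g.2) T).mp (hPT ▸ Subgroup.mem_zpowers T))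
    exact ⟨_, _, sub_ne_zero.mpr (((g : G) : Equiv.Perm F11).injective.ne one_ne_zero), fun j => h j⟩
  have hlin : ∀ a b : F11, a ≠ 1 → Has G (fun j => a * j + b) → Has G fun j => a * j := by
    intro a b ha hf
    have hs : a - 1 ≠ 0 := sub_ne_zero.mpr ha
    refine (((has_translation hS.shift (b / (a - 1))).comp hf).comp
      (has_translation hS.shift (-(b / (a - 1))))).congr fun j => ?_
    field_simp
    ring
  have hd5 : d = 5 := by
    have hd' : d ∈ Nat.divisors 10 := Nat.mem_divisors.mpr ⟨hd, by norm_num⟩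
    rw [show Nat.divisors 10 = {1, 2, 5, 10} by decide] at hd'
    have h2 : ¬ 2 ∣ d := by
      intro h2
      obtain ⟨z, hz⟩ := exists_prime_orderOf_dvd_card' (G := N) 2 (hN ▸ dvd_mul_of_dvd_right h2 11)
      obtain ⟨a, b, ha, hab⟩ := haff z
      have hzz : ∀ j, a * (a * j + b) + b = j := by
        intro j
        have : z * z = 1 := by rw [← pow_two, ← hz]; exact pow_orderOf_eq_one z
        have h1 : (((z * z : N) : G) : Equiv.Perm F11) j = j := by rw [this]; rfl
        rw [Subgroup.coe_mul, Subgroup.coe_mul, Equiv.Perm.mul_apply, hab, hab] at h1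
        exact h1
      have haa : a * a = 1 := by linear_combination hzz 1 - hzz 0
      rcases mul_self_eq_one_iff.mp haa with h | h
      · have hb : b = 0 := by
          have := hzz 0
          rw [h] at this
          exact (mul_eq_zero.mp (by linear_combination this : (2 : F11) * b = 0)).resolve_left (by decide)
        have : z = 1 := Subtype.ext (Subtype.ext (Equiv.ext fun j => by rw [hab, h, hb, one_mul, add_zero]; rfl))
        rw [this, orderOf_one] at hz
        exact absurd hz (by norm_num)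
      · exact hneg ((hlin a b (by rw [h]; decide) ⟨_, (z : G).2, hab⟩).congr fun j => by rw [h]; ring)
    simp only [Finset.mem_insert, Finset.mem_singleton] at hd'
    rcases hd' with h | h | h | h <;> omega
  refine ⟨n, by rw [hcard, hd5]; ring, hn, hn1, ?_⟩
  haveI : Fact (Nat.Prime 5) := ⟨by norm_num⟩
  obtain ⟨z, hz⟩ := exists_prime_orderOf_dvd_card' (G := N) 5 (by rw [hN, hd5]; norm_num)
  obtain ⟨a, b, ha, hab⟩ := haff z
  have ha1 : a ≠ 1 := by
    intro h
    have hpow : ∀ (k : ℕ) (j : F11), (((z ^ k : N) : G) : Equiv.Perm F11) j = j + k * b := by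
      intro k
      induction k with
      | zero => intro j; simp
      | succ k ih =>
        intro j
        rw [pow_succ, Subgroup.coe_mul, Subgroup.coe_mul, Equiv.Perm.mul_apply, ih, hab, h]
        push_cast; ring
    have h5 := hpow 5 0
    rw [← hz, pow_orderOf_eq_one, hz, Subgroup.coe_one, Subgroup.coe_one, Equiv.Perm.one_apply, zero_add] at h5
    have hb : b = 0 := (mul_eq_zero.mp h5.symm).resolve_left (by decide)
    have : z = 1 := Subtype.ext (Subtype.ext (Equiv.ext fun j => by rw [hab, h, hb, one_mul, add_zero]; rfl))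
    rw [this, orderOf_one] at hz
    exact absurd hz (by norm_num)
  have hmul := hlin a b ha1 ⟨_, (z : G).2, hab⟩
  have hit : ∀ (k : ℕ) (j : F11), (fun i => a * i)^[k] j = a ^ k * j := fun k j => by
    rw [mul_left_iterate]
  have key : ∀ c : F11, c ≠ 0 → c ≠ 1 → c ^ 5 = -1 ∨ ∃ k : Fin 5, c ^ (k : ℕ) = 3 := by decide +kernel
  rcases key a ha ha1 with h | ⟨k, hk⟩
  · exact absurd ((hmul.iterate 5).congr fun j => by rw [hit, h]; ring) hneg
  · exact (hmul.iterate k).congr fun j => by rw [hit, hk]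

theorem core (hneg : ¬ Has G fun j => -j) :
    (Nat.card G = 660 ∨ Nat.card G = 7920) ∧ Has G (fun j => 3 * j) ∧
      ∃ y, (y = yA ∨ y = yB) ∧ Has G y := by
  haveI := hS.transitive
  haveI : Fact (Nat.Prime 5) := ⟨by norm_num⟩
  obtain ⟨n, hcard, hn11, hn1, hm3⟩ := affine_data hS hneg
  obtain ⟨m, hmG, hm⟩ := id hm3
  set M : G := ⟨m, hmG⟩
  have hMpow : ∀ (k : ℕ) (j : F11), ((M ^ k : G) : Equiv.Perm F11) j = 3 ^ k * j := by
    intro k j
    rw [Subgroup.coe_pow, Equiv.Perm.coe_pow, show ⇑(M : Equiv.Perm F11) = fun i => 3 * i from funext hm,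
      mul_left_iterate]
  have hM5 : orderOf M = 5 := by
    refine orderOf_eq_prime (Subtype.ext (Equiv.ext fun j => ?_)) fun h => ?_
    · rw [hMpow, show (3 : F11) ^ 5 = 1 by decide, one_mul]
      rfl
    · have h0 := hMpow 1 1
      rw [pow_one, h, Subgroup.coe_one, Equiv.Perm.one_apply] at h0
      exact absurd h0 (by decide)
  -- the form of an element normalising M
  have hform : ∀ (g : G) (k : F11), (k = 3 ∨ k = 4) →
      (∀ j, (g : Equiv.Perm F11) (3 * j) = k * (g : Equiv.Perm F11) j) →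
      (g : Equiv.Perm F11) 1 ≠ 0 ∧ (g : Equiv.Perm F11) 2 ≠ 0 ∧
      (∀ i : Fin 5, (g : Equiv.Perm F11) 2 ≠ k ^ (i : ℕ) * (g : Equiv.Perm F11) 1) ∧
      ∀ j, (g : Equiv.Perm F11) j = cand k ((g : Equiv.Perm F11) 1) ((g : Equiv.Perm F11) 2) j := by
    intro g k hk hg
    have h0 : (g : Equiv.Perm F11) 0 = 0 := by
      have := hg 0
      rw [mul_zero] at this
      refine (mul_eq_zero.mp (by linear_combination this : (1 - k) * (g : Equiv.Perm F11) 0 = 0)).resolve_left ?_
      rcases hk with rfl | rfl <;> decide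
    have hp : ∀ (i : ℕ) (j : F11), (g : Equiv.Perm F11) (3 ^ i * j) = k ^ i * (g : Equiv.Perm F11) j := by
      intro i
      induction i with
      | zero => intro j; simp
      | succ i ih => intro j; rw [pow_succ', mul_assoc, hg, ih]; ring
    refine ⟨fun h => absurd ((g : Equiv.Perm F11).injective (h.trans h0.symm)) (by decide),
      fun h => absurd ((g : Equiv.Perm F11).injective (h.trans h0.symm)) (by decide), fun i h => ?_, fun j => ?_⟩
    · rw [← hp, mul_one] at h
      have h2 : ∀ i : Fin 5, (2 : F11) ≠ 3 ^ (i : ℕ) := by decide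
      exact h2 i ((g : Equiv.Perm F11).injective h)
    · rcases cand_eq j with rfl | ⟨i, rfl⟩ | ⟨i, rfl⟩
      · rw [h0]; rfl
      · rw [(cand_pow k _ _ i hk).1, ← hp, mul_one]
      · rw [(cand_pow k _ _ i hk).2, mul_comm, hp]
  have hcomm : ∀ g : G, g * M = M * g → g ∈ Subgroup.zpowers M := by
    intro g hg
    have hg3 : ∀ j, (g : Equiv.Perm F11) (3 * j) = 3 * (g : Equiv.Perm F11) j := fun j => by
      have h := congrArg (fun x : G => (x : Equiv.Perm F11) j) hg
      simp only [Subgroup.coe_mul, Equiv.Perm.mul_apply] at h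
      rwa [hm, hm] at h
    obtain ⟨hc, he, hne, hj⟩ := hform g 3 (Or.inl rfl) hg3
    rcases cand3_cases ((g : Equiv.Perm F11) 1) ((g : Equiv.Perm F11) 2) with h | h | ⟨i, h⟩ | h | h
    · exact absurd h hc
    · exact absurd h he
    · exact absurd h (hne i)
    · rcases units_eleven _ hc with ⟨i, hi⟩ | h5
      · have hgi : g = M ^ (i : ℕ) := Subtype.ext (Equiv.ext fun j => by rw [hMpow, ← hi, hj, h])
        rw [hgi]
        exact Subgroup.pow_mem _ (Subgroup.mem_zpowers M) _
      · refine absurd ?_ hneg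
        have hl : Has G fun j => (g : Equiv.Perm F11) 1 * j := ⟨g, g.2, fun j => (hj j).trans (h j)⟩
        exact (hl.iterate 5).congr fun j => by rw [mul_left_iterate, h5]; ring
    · simp only [hit, List.any_eq_true, Bool.and_eq_true] at h
      obtain ⟨x, -, -, hseven⟩ := h
      exact absurd hseven (no_seven hS ⟨g, g.2, hj⟩)
  -- the Sylow count for five
  obtain ⟨S, hSle⟩ := (IsPGroup.of_card (p := 5) (n := 1)
    (by rw [Nat.card_zpowers, hM5, pow_one]) : IsPGroup 5 (Subgroup.zpowers M)).exists_le_sylow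
  have hSM : (S : Subgroup G) = Subgroup.zpowers M := by
    refine (Subgroup.eq_of_le_of_card_ge hSle ?_).symm
    rw [Nat.card_zpowers, hM5]
    obtain ⟨k, hk⟩ := IsPGroup.iff_card.mp S.isPGroup'
    rw [hk]
    calc 5 ^ k ≤ 5 ^ 1 := by
          refine Nat.pow_le_pow_right (by norm_num) ?_
          by_contra hlt
          exact not_twentyFive hS ((pow_dvd_pow 5 (by omega : 2 ≤ k)).trans
            (hk ▸ Subgroup.card_subgroup_dvd_card (S : Subgroup G)))
      _ = 5 := pow_one 5
  set N := Subgroup.normalizer ((Subgroup.zpowers M : Subgroup G) : Set G) with hNdef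
  have hidx : Nat.card (Sylow 5 G) = N.index := by
    rw [Sylow.card_eq_index_normalizer S, hNdef, ← hSM]
    rfl
  have hmod : Nat.card (Sylow 5 G) % 5 = 1 := by
    have := card_sylow_modEq_one 5 G
    rw [Nat.ModEq] at this
    simpa using this
  have hN20 : Nat.card N ∣ 20 := by
    rw [← Subgroup.card_mul_index (Subgroup.normalizerMonoidHom (Subgroup.zpowers M)).ker, Subgroup.index_ker,
      show 20 = 5 * 4 from rfl]
    refine Nat.mul_dvd_mul ?_ ((Subgroup.card_subgroup_dvd_card _).trans ?_)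
    · rw [← Subgroup.card_map_of_injective N.subtype_injective, ← hM5, ← Nat.card_zpowers]
      refine Subgroup.card_dvd_of_le ?_
      rintro _ ⟨g, hg, rfl⟩
      rw [Subgroup.normalizerMonoidHom_ker, SetLike.mem_coe, Subgroup.mem_subgroupOf,
        Subgroup.mem_centralizer_iff] at hg
      exact hcomm _ (hg M (Subgroup.mem_zpowers M)).symm
    · rw [IsCyclic.card_mulAut, Nat.card_zpowers, hM5]
      decide
  have h5N : 5 ∣ Nat.card N := by
    rw [← hM5, ← Nat.card_zpowers]
    exact Subgroup.card_dvd_of_le Subgroup.le_normalizer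
  have hnd : 5 * n ∣ 17280 := reduced_dvd hS (by rw [hcard]; ring)
  have hnset : n = 12 ∨ n = 144 ∨ n = 1728 := by
    have hn' : n ∣ 3456 := Nat.dvd_of_mul_dvd_mul_left (by norm_num) (show 5 * n ∣ 5 * 3456 from hnd)
    obtain ⟨u, v, hu, hv, rfl⟩ := Nat.dvd_mul.mp (show n ∣ 2 ^ 7 * 3 ^ 3 from hn')
    obtain ⟨i, hi, rfl⟩ := (Nat.dvd_prime_pow Nat.prime_two).mp hu
    obtain ⟨j, hj, rfl⟩ := (Nat.dvd_prime_pow Nat.prime_three).mp hv
    have key : ∀ i : Fin 8, ∀ j : Fin 4, (2 ^ (i : ℕ) * 3 ^ (j : ℕ)) % 11 = 1 ∧ 2 ^ (i : ℕ) * 3 ^ (j : ℕ) ≠ 1 →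
        2 ^ (i : ℕ) * 3 ^ (j : ℕ) = 12 ∨ 2 ^ (i : ℕ) * 3 ^ (j : ℕ) = 144 ∨ 2 ^ (i : ℕ) * 3 ^ (j : ℕ) = 1728 := by
      decide +kernel
    exact key ⟨i, by omega⟩ ⟨j, by omega⟩ ⟨hn11, hn1⟩
  have hprod : Nat.card N * Nat.card (Sylow 5 G) = 55 * n := by rw [hidx, N.card_mul_index, hcard]
  have hNset : Nat.card N = 5 ∨ Nat.card N = 10 ∨ Nat.card N = 20 := by
    have h := Nat.mem_divisors.mpr ⟨hN20, by norm_num⟩
    rw [show Nat.divisors 20 = {1, 2, 4, 5, 10, 20} by decide] at h
    simp only [Finset.mem_insert, Finset.mem_singleton] at h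
    rcases h with h | h | h | h | h | h <;> omega
  have hres : (n = 12 ∧ Nat.card N = 10) ∨ (n = 144 ∧ Nat.card N = 20) := by
    rcases hNset with h | h | h <;> rw [h] at hprod <;> rcases hnset with h' | h' | h' <;> omega
  refine ⟨by rcases hres with ⟨h, -⟩ | ⟨h, -⟩ <;> rw [hcard, h] <;> norm_num, hm3, ?_⟩
  obtain ⟨z, hz⟩ := exists_prime_orderOf_dvd_card' (G := N) 2
    (by rcases hres with ⟨-, h⟩ | ⟨-, h⟩ <;> rw [h] <;> norm_num)
  have hzz : (z : G) * (z : G) = 1 := by
    rw [← Subgroup.coe_mul, ← pow_two, ← hz, pow_orderOf_eq_one, Subgroup.coe_one]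
  have hzM : (z : G) * M * (z : G)⁻¹ ∈ Submonoid.powers M := by
    rw [mem_powers_iff_mem_zpowers]
    exact ((Subgroup.mem_normalizer_iff.mp z.2) M).mp (Subgroup.mem_zpowers M)
  obtain ⟨k, hk⟩ := Submonoid.mem_powers_iff _ _ |>.mp hzM
  have hk' : M ^ (k % 5) = (z : G) * M * (z : G)⁻¹ := by rw [← hk, ← hM5, pow_mod_orderOf]
  have hkk : M ^ ((k % 5) * (k % 5)) = M := by
    rw [pow_mul, hk', conj_pow, hk']
    have : (z : G)⁻¹ = z := inv_eq_of_mul_eq_one_left hzz
    rw [this]
    calc (z : G) * ((z : G) * M * z) * z = ((z : G) * z) * M * ((z : G) * z) := by group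
      _ = M := by rw [hzz, one_mul, mul_one]
  have hk4 : k % 5 = 4 := by
    have h1 := congrArg (fun x : G => (x : Equiv.Perm F11) 1) hkk
    simp only [hMpow, hm, mul_one, M] at h1
    have hne : k % 5 ≠ 1 := by
      intro h
      rw [h, pow_one, eq_mul_inv_iff_mul_eq] at hk'
      have hzp := hcomm z hk'.symm
      have h2 : orderOf (z : G) ∣ orderOf M := orderOf_dvd_of_mem_zpowers hzp
      rw [Subgroup.orderOf_coe, hz, hM5] at h2
      exact absurd h2 (by norm_num)
    have key : ∀ i : Fin 5, (3 : F11) ^ ((i : ℕ) * i) = 3 → (i : ℕ) = 1 ∨ (i : ℕ) = 4 := by decide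
    rcases key ⟨k % 5, Nat.mod_lt _ (by norm_num)⟩ h1 with h | h
    · exact absurd h hne
    · exact h
  have hz4 : ∀ j, ((z : G) : Equiv.Perm F11) (3 * j) = 4 * ((z : G) : Equiv.Perm F11) j := by
    intro j
    have h := congrArg (fun x : G => (x : Equiv.Perm F11) (((z : G) : Equiv.Perm F11) j)) hk'
    rw [hk4] at h
    simp only [hMpow, Subgroup.coe_mul, Subgroup.coe_inv, Equiv.Perm.mul_apply, Equiv.Perm.inv_def,
      Equiv.symm_apply_apply] at h
    rw [hm, show (3 : F11) ^ 4 = 4 by decide] at h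
    exact h.symm
  obtain ⟨hc, he, hne, hj⟩ := hform (z : G) 4 (Or.inr rfl) hz4
  rcases cand4_cases (((z : G) : Equiv.Perm F11) 1) (((z : G) : Equiv.Perm F11) 2) with h | h | ⟨i, h⟩ | ⟨i, h⟩ | h
  · exact absurd h hc
  · exact absurd h he
  · exact absurd h (hne i)
  · have hy : ∀ y : F11 → F11, (∀ j, cand 4 (((z : G) : Equiv.Perm F11) 1) (((z : G) : Equiv.Perm F11) 2) j
        = y (3 ^ (i : ℕ) * j)) → Has G y := by
      intro y hy
      refine (Has.comp (f := cand 4 (((z : G) : Equiv.Perm F11) 1) (((z : G) : Equiv.Perm F11) 2))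
        ⟨_, (z : G).2, hj⟩ (hm3.iterate (5 - (i : ℕ)))).congr fun j => ?_
      rw [mul_left_iterate, hy, ← mul_assoc, ← pow_add, Nat.add_sub_cancel' i.2.le,
        show (3 : F11) ^ 5 = 1 by decide, one_mul]
    rcases h with h | h
    · exact ⟨yA, Or.inl rfl, hy _ h⟩
    · exact ⟨yB, Or.inr rfl, hy _ h⟩
  · simp only [hit, List.any_eq_true, Bool.and_eq_true] at h
    obtain ⟨x, -, -, hseven⟩ := h
    exact absurd hseven (no_seven hS ⟨_, (z : G).2, hj⟩)

theorem even_part : Std (G ⊓ alternatingGroup F11) ∧ ¬ Has (G ⊓ alternatingGroup F11) fun j => -j := by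
  haveI := hS.transitive
  obtain ⟨τ, hτG, hτ⟩ := hS.shift
  have hsign : τ ∈ alternatingGroup F11 := by
    rw [Equiv.Perm.mem_alternatingGroup, show τ = Equiv.addRight (1 : F11) from Equiv.ext hτ]
    decide +kernel
  have hne : (alternatingGroup F11).subgroupOf G ≠ ⊥ := by
    intro h
    have hmem : (⟨τ, hτG⟩ : G) ∈ (alternatingGroup F11).subgroupOf G := hsign
    rw [h, Subgroup.mem_bot] at hmem
    have h1 : τ = 1 := congrArg Subtype.val hmem
    have h0 := hτ 0
    rw [h1] at h0
    exact absurd h0 (by decide)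
  obtain ⟨-, hns⟩ := normal_facts (p := 11) (ZMod.card 11) G hS.nonsolvable _ inferInstance hne
  rw [Subgroup.subgroupOf_map_subtype, inf_comm] at hns
  refine ⟨⟨⟨τ, ⟨hτG, hsign⟩, hτ⟩, hns, fun h => hS.small (h.trans inf_le_left)⟩, ?_⟩
  rintro ⟨g, ⟨-, hg⟩, hgn⟩
  have hg1 := Equiv.Perm.mem_alternatingGroup.mp hg
  rw [show g = Equiv.neg F11 from Equiv.ext hgn, sign_neg] at hg1
  exact absurd hg1 (by decide)

theorem not_neg : ¬ Has G fun j => -j := by
  intro hneg
  obtain ⟨hS', hneg'⟩ := even_part hS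
  obtain ⟨-, -, y, hy, hyG⟩ := core hS' hneg'
  have h := (hyG.mono inf_le_left).comp hneg
  rcases hy with rfl | rfl
  · exact no_seven hS h yA_neg_seven
  · exact no_seven hS h yB_neg_seven

theorem le_alternating : G ≤ alternatingGroup F11 := by
  obtain ⟨hS', hneg'⟩ := even_part hS
  obtain ⟨h0, -, -⟩ := core hS' hneg'
  obtain ⟨h1, -, -⟩ := core hS (not_neg hS)
  intro g hg
  by_contra hgA
  have hidx : ((alternatingGroup F11).subgroupOf G).index ∣ 2 := by
    rw [← alternatingGroup.index_eq_two (α := F11)]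
    exact Subgroup.relIndex_dvd_index_of_normal _ G
  have hcm := ((alternatingGroup F11).subgroupOf G).card_mul_index
  rw [show Nat.card ((alternatingGroup F11).subgroupOf G) = Nat.card (G ⊓ alternatingGroup F11 : Subgroup _) by
    rw [← Subgroup.card_map_of_injective G.subtype_injective, Subgroup.subgroupOf_map_subtype, inf_comm]] at hcm
  rcases (Nat.dvd_prime Nat.prime_two).mp hidx with h | h
  · rw [Subgroup.index_eq_one, Subgroup.subgroupOf_eq_top] at h
    exact hgA (h hg)
  · rw [h] at hcm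
    omega

theorem range_le {y : F11 → F11} (hy : GoodY y) (h3 : Has G fun j => 3 * j) (hyG : Has G y) :
    (pslHom hy).range ≤ G := by
  have hsq : ∀ r : F11, r ≠ 0 → ∀ b, Has G fun j => r ^ 2 * j + b := by
    intro r hr b
    have key : ∀ c : F11, c ≠ 0 → ∃ i : Fin 5, c ^ 2 = 3 ^ (i : ℕ) := by decide +kernel
    obtain ⟨i, hi⟩ := key r hr
    exact ((has_translation hS.shift b).comp (h3.iterate i)).congr fun j => by rw [mul_left_iterate, hi]
  rintro _ ⟨g, rfl⟩
  induction g using QuotientGroup.induction_on with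
  | H g =>
    have hdet := det_eq g
    have hf : Has G (bru y (g 0 0) (g 0 1) (g 1 0) (g 1 1)) := by
      by_cases hc : g 1 0 = 0
      · refine (hsq (g 0 0) (fun h => ?_) (g 0 0 * g 0 1)).congr fun j => by simp only [bru, if_pos hc]
        rw [h, hc] at hdet
        exact zero_ne_one (by linear_combination hdet : (0 : F11) = 1)
      · exact ((has_translation hS.shift (g 0 0 * g 1 0 ^ 9)).comp (hyG.comp (hsq _ hc (g 1 0 * g 1 1)))).congr
          fun j => by simp only [bru, if_neg hc]
    obtain ⟨k, hk, hkg⟩ := hf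
    have : pslHom hy (QuotientGroup.mk g) = k := Equiv.ext fun j => by
      rw [hkg]
      rfl
    rw [this]
    exact hk

theorem no_small_support {t : Equiv.Perm F11} (ht : t ∈ G) (hprime : (orderOf t).Prime) :
    7 < t.support.card := by
  haveI := hS.transitive
  by_contra hle
  push Not at hle
  obtain ⟨k, hk⟩ := Equiv.Perm.cycleType_prime_order hprime
  have hsum : (k + 1) * orderOf t = t.support.card := by
    rw [← Equiv.Perm.sum_cycleType, hk, Multiset.sum_replicate, smul_eq_mul]
  have hr7 : orderOf t ≤ 7 := le_trans (Nat.le_mul_of_pos_left _ (Nat.succ_pos k)) (hsum.trans_le hle)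
  have htt : t ^ orderOf t = 1 := pow_orderOf_eq_one t
  have h2t := two_transitive (p := 11) (ZMod.card 11) G hS.nonsolvable
  have hpair : ∀ {b c d e : F11}, b ≠ c → d ≠ e → ∃ g : G, g • b = d ∧ g • c = e :=
    is_two_pretransitive_iff.mp h2t
  -- a conjugate with 0 sent to 1
  have hnorm : ∃ s ∈ G, orderOf s = orderOf t ∧ s.support.card = t.support.card ∧ s 0 = 1 := by
    obtain ⟨x, hx⟩ : ∃ x, t x ≠ x := by
      by_contra hall
      push Not at hall
      rw [show t = 1 from Equiv.ext hall, orderOf_one] at hprime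
      exact Nat.not_prime_one hprime
    obtain ⟨g, hg0, hg1⟩ := hpair (Ne.symm hx) (zero_ne_one (α := F11))
    refine ⟨(g : Equiv.Perm F11) * t * (g : Equiv.Perm F11)⁻¹, G.mul_mem (G.mul_mem g.2 ht) (G.inv_mem g.2), ?_,
      Equiv.Perm.card_support_conj, ?_⟩
    · exact orderOf_injective (MulAut.conj (g : Equiv.Perm F11)).toMonoidHom (MulEquiv.injective _) t
    · rw [Equiv.Perm.mul_apply, Equiv.Perm.mul_apply, ← hg0,
        show (g : Equiv.Perm F11)⁻¹ (g • x) = x from (g : Equiv.Perm F11).symm_apply_apply x]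
      exact hg1
  obtain ⟨s, hsG, hso, hsc, hs0⟩ := hnorm
  have hval : ∀ c : F11, c ≠ 0 → c ≠ 1 → 2 ≤ c.val := by decide
  have hmem : ∀ {x}, x ∈ s.support ↔ s x ≠ x := fun {x} => Equiv.Perm.mem_support
  have h0m : (0 : F11) ∈ s.support := hmem.mpr (by rw [hs0]; exact one_ne_zero)
  have h1m : (1 : F11) ∈ s.support := hs0 ▸ Equiv.Perm.apply_mem_support.mpr h0m
  interval_cases hr : orderOf t
  all_goals first
    | (revert hprime; decide)
    | skip
  · -- order two
    have hss : ∀ x, s (s x) = x := fun x => by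
      rw [← Equiv.Perm.mul_apply, ← pow_two, ← hso, pow_orderOf_eq_one, Equiv.Perm.one_apply]
    have hs1 : s 1 = 0 := hs0 ▸ hss 0
    rcases (by omega : k = 0 ∨ k = 1 ∨ k = 2) with rfl | rfl | rfl
    · exact not_isSwap (p := 11) (ZMod.card 11) G hS.small ht (Equiv.Perm.card_support_eq_two.mp hsum.symm)
    · have h4 : s.support.card = 4 := by rw [hsc, ← hsum]
      obtain ⟨c, hc, hc0, hc1⟩ : ∃ c ∈ s.support, c ≠ 0 ∧ c ≠ 1 := by
        obtain ⟨c, hc⟩ : (s.support \ {0, 1}).Nonempty := by
          rw [← Finset.card_pos]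
          have := Finset.le_card_sdiff {(0 : F11), 1} s.support
          have h2 : ({(0 : F11), 1} : Finset F11).card = 2 := by decide
          omega
        simp only [Finset.mem_sdiff, Finset.mem_insert, Finset.mem_singleton, not_or] at hc
        exact ⟨c, hc.1, hc.2⟩
      set d := s c with hd
      have hd0 : d ≠ 0 := fun e => hc1 (by rw [← hss c, ← hd, e, hs0])
      have hd1 : d ≠ 1 := fun e => hc0 (by rw [← hss c, ← hd, e, hs1])
      have hcd : c ≠ d := fun e => hmem.mp hc (hd ▸ e.symm)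
      have hsupp : s.support = {0, 1, c, d} := by
        refine (Finset.eq_of_subset_of_card_le ?_ ?_).symm
        · intro x hx
          simp only [Finset.mem_insert, Finset.mem_singleton] at hx
          rcases hx with rfl | rfl | rfl | rfl
          · exact h0m
          · exact h1m
          · exact hc
          · exact Equiv.Perm.apply_mem_support.mpr hc
        · rw [h4, Finset.card_insert_of_notMem (by simp [Ne.symm hc0, Ne.symm hd0]),
            Finset.card_insert_of_notMem (by simp [Ne.symm hc1, Ne.symm hd1]),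
            Finset.card_insert_of_notMem (by simp [hcd]), Finset.card_singleton]
      have hf : Has G (dbl c d) := ⟨s, hsG, fun x => by
        unfold dbl
        split_ifs with e0 e1 ec ed
        · rw [e0, hs0]
        · rw [e1, hs1]
        · rw [ec]
        · rw [ed, hd, hss]
        · refine Equiv.Perm.notMem_support.mp ?_
          simp [hsupp, e0, e1, ec, ed]⟩
      have h := dbl_cases c d ⟨hval c hc0 hc1, hval d hd0 hd1, hcd⟩
      simp only [List.any_eq_true, Bool.and_eq_true] at h
      obtain ⟨x, -, -, hseven⟩ := h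
      exact no_seven hS hf hseven
    · have hA := le_alternating hS ht
      rw [Equiv.Perm.mem_alternatingGroup, Equiv.Perm.sign_of_cycleType, hk] at hA
      exact absurd hA (by decide)
  · -- order three
    have hsss : ∀ x, s (s (s x)) = x := fun x => by
      rw [← Equiv.Perm.mul_apply, ← Equiv.Perm.mul_apply, ← pow_two, ← pow_succ, show 2 + 1 = 3 from rfl, ← hso,
        pow_orderOf_eq_one, Equiv.Perm.one_apply]
    set c := s 1 with hc
    have hsc0 : s c = 0 := by rw [hc, ← hs0, hsss]
    have hc0 : c ≠ 0 := fun e => by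
      rw [e, hs0] at hsc0
      exact one_ne_zero hsc0
    have hc1 : c ≠ 1 := fun e => hmem.mp h1m (hc ▸ e)
    rcases (by omega : k = 0 ∨ k = 1) with rfl | rfl
    · exact not_threeCycle hS ht (card_support_eq_three_iff.mp hsum.symm)
    · have h6 : s.support.card = 6 := by rw [hsc, ← hsum]
      set T : Finset F11 := s.support \ {0, 1, c} with hT
      have hTc : 3 ≤ T.card := by
        have := Finset.le_card_sdiff {(0 : F11), 1, c} s.support
        have h3 : ({(0 : F11), 1, c} : Finset F11).card ≤ 3 := Finset.card_le_three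
        rw [hT]
        omega
      obtain ⟨d, hd, hmin⟩ := T.exists_min_image (fun x => x.val) (Finset.card_pos.mp (by omega))
      have hTinv : ∀ x ∈ T, s x ∈ T := by
        intro x hx
        simp only [T, Finset.mem_sdiff, Finset.mem_insert, Finset.mem_singleton, not_or] at hx ⊢
        refine ⟨Equiv.Perm.apply_mem_support.mpr hx.1, fun e => hx.2.2.2 ?_, fun e => hx.2.1 ?_, fun e => hx.2.2.1 ?_⟩
        · exact s.injective (e.trans hsc0.symm)
        · exact s.injective (e.trans hs0.symm)
        · exact s.injective (e.trans hc)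
      set e := s d with he
      set f := s e with hf'
      have heT : e ∈ T := hTinv d hd
      have hfT : f ∈ T := hTinv e heT
      have hTmem : ∀ {x}, x ∈ T → x ≠ 0 ∧ x ≠ 1 ∧ x ≠ c ∧ s x ≠ x := by
        intro x hx
        simp only [T, Finset.mem_sdiff, Finset.mem_insert, Finset.mem_singleton, not_or] at hx
        exact ⟨hx.2.1, hx.2.2.1, hx.2.2.2, hmem.mp hx.1⟩
      have hde : d ≠ e := fun h => (hTmem hd).2.2.2 h.symm
      have hef : e ≠ f := fun h => (hTmem heT).2.2.2 h.symm
      have hdf : d ≠ f := fun h => by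
        refine hde ?_
        have h3 := hsss d
        rw [← he, ← hf', ← h] at h3
        exact h3.symm
      have hsupp : s.support = {0, 1, c, d, e, f} := by
        refine (Finset.eq_of_subset_of_card_le ?_ ?_).symm
        · intro x hx
          simp only [Finset.mem_insert, Finset.mem_singleton] at hx
          rcases hx with rfl | rfl | rfl | rfl | rfl | rfl
          · exact h0m
          · exact h1m
          · exact Equiv.Perm.apply_mem_support.mpr h1m
          · exact (Finset.mem_sdiff.mp hd).1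
          · exact (Finset.mem_sdiff.mp heT).1
          · exact (Finset.mem_sdiff.mp hfT).1
        · obtain ⟨d0, d1, dc, -⟩ := hTmem hd
          obtain ⟨e0, e1, ec, -⟩ := hTmem heT
          obtain ⟨f0, f1, fc, -⟩ := hTmem hfT
          rw [h6, Finset.card_insert_of_notMem (by simp [Ne.symm hc0, Ne.symm d0, Ne.symm e0, Ne.symm f0]),
            Finset.card_insert_of_notMem (by simp [Ne.symm hc1, Ne.symm d1, Ne.symm e1, Ne.symm f1]),
            Finset.card_insert_of_notMem (by simp [Ne.symm dc, Ne.symm ec, Ne.symm fc]),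
            Finset.card_insert_of_notMem (by simp [hde, hdf]),
            Finset.card_insert_of_notMem (by simp [hef]), Finset.card_singleton]
      have hf : Has G (tri c d e f) := ⟨s, hsG, fun x => by
        unfold tri
        split_ifs with x0 x1 xc xd xe xf
        · rw [x0, hs0]
        · rw [x1]
        · rw [xc, hsc0]
        · rw [xd]
        · rw [xe]
        · rw [xf, hf', he, hsss]
        · refine Equiv.Perm.notMem_support.mp ?_
          simp [hsupp, x0, x1, xc, xd, xe, xf]⟩
      have hlt : ∀ {x}, x ∈ T → d ≠ x → d.val < x.val := fun {x} hx hne =>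
        lt_of_le_of_ne (hmin x hx) fun h => hne (ZMod.val_injective 11 h)
      have h := tri_cases c d e f ⟨hval c hc0 hc1, hval d (hTmem hd).1 (hTmem hd).2.1,
        Ne.symm (hTmem hd).2.2.1, hlt heT hde, hlt hfT hdf, hef, (hTmem heT).2.2.1, (hTmem hfT).2.2.1⟩
      simp only [List.any_eq_true, Bool.and_eq_true] at h
      obtain ⟨x, -, -, hseven⟩ := h
      exact no_seven hS hf hseven
  · -- order five
    have hk0 : k = 0 := by omega
    subst hk0
    haveI : Fact (Nat.Prime 5) := ⟨by norm_num⟩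
    have hcyc : t.IsCycle := by
      rw [← Equiv.Perm.card_cycleType_eq_one, hk, Multiset.card_replicate]
    obtain ⟨s', hs', h3⟩ := exists_threeCycle_of_prime_cycle G (isPreprimitive (p := 11) (ZMod.card 11) G)
      (q := 5) (by norm_num) ht hcyc (by omega) (by rw [ZMod.card]; norm_num)
    exact not_threeCycle hS hs' h3
  · -- order seven
    refine not_seven hS ?_
    rw [← hr]
    have := orderOf_dvd_natCard (⟨t, ht⟩ : G)
    rwa [Subgroup.orderOf_mk] at this

theorem classification :
    (IsMultiplyPretransitive G F11 4 ∧ ∀ x : Fin 4 ↪ F11, stabilizer G x = ⊥) ∨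
      Nonempty (G ≃* Matrix.ProjectiveSpecialLinearGroup (Fin 2) F11) := by
  obtain ⟨hcard, h3, y, hy, hyG⟩ := core hS (not_neg hS)
  rcases hcard with h660 | h7920
  · refine Or.inr ?_
    have hgood : GoodY y := by rcases hy with rfl | rfl <;> [exact goodA; exact goodB]
    have heq : (pslHom hgood).range = G := by
      refine Subgroup.eq_of_le_of_card_ge (range_le hS hgood h3 hyG) ?_
      rw [h660, ← Nat.card_congr (MonoidHom.ofInjective (pslHom_injective hgood)).toEquiv, card_psl]
    exact ⟨((MonoidHom.ofInjective (pslHom_injective hgood)).trans (MulEquiv.subgroupCongr heq)).symm⟩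
  · refine Or.inl ?_
    have hstab : ∀ x : Fin 4 ↪ F11, stabilizer G x = ⊥ := by
      intro x
      refine (Subgroup.eq_bot_iff_forall _).mpr fun g hg => ?_
      by_contra hne
      have hne' : (g : Equiv.Perm F11) ≠ 1 := fun h => hne (Subtype.ext h)
      have ho1 : orderOf (g : Equiv.Perm F11) ≠ 1 := fun h => hne' (orderOf_eq_one_iff.mp h)
      set r := (orderOf (g : Equiv.Perm F11)).minFac with hr
      have hrp : r.Prime := Nat.minFac_prime ho1
      set t := (g : Equiv.Perm F11) ^ (orderOf (g : Equiv.Perm F11) / r) with ht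
      have hto : orderOf t = r :=
        orderOf_pow_orderOf_div (orderOf_pos _).ne' (Nat.minFac_dvd _)
      have hfix : ∀ i, (g : Equiv.Perm F11) (x i) = x i := fun i =>
        congrArg (fun f : Fin 4 ↪ F11 => f i) (mem_stabilizer_iff.mp hg)
      have hlt := no_small_support (t := t) hS (G.pow_mem g.2 _ : t ∈ G) (by rw [hto]; exact hrp)
      have hsub : Finset.univ.map x ⊆ t.supportᶜ := by
        intro z hz
        obtain ⟨i, -, rfl⟩ := Finset.mem_map.mp hz
        rw [Finset.mem_compl, Equiv.Perm.notMem_support]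
        exact Equiv.Perm.pow_apply_eq_self_of_apply_eq_self (hfix i) _
      have h4 := Finset.card_le_card hsub
      rw [Finset.card_map, Finset.card_univ, Fintype.card_fin, Finset.card_compl, ZMod.card] at h4
      omega
    refine ⟨⟨fun u v => ?_⟩, hstab⟩
    have horb : orbit G u = Set.univ := by
      refine Set.eq_of_subset_of_ncard_le (Set.subset_univ _) ?_
      refine le_trans ?_ (le_of_eq (index_stabilizer G u))
      rw [hstab, Subgroup.index_bot, h7920, Set.ncard_univ, Nat.card_eq_fintype_card,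
        Fintype.card_embedding_eq, Fintype.card_fin, ZMod.card]
      decide
    show v ∈ orbit G u
    rw [horb]
    trivial

end CfsgLib.PrimeDegree.Eleven
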